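/-
`E₈(3)`, `L₂(7)`: fixed spaces of idempotents are additive.
-/
import Cfsg.Agent.KSG.E87.Defs

set_option autoImplicit false

namespace CL.E87.IndA
open Module Function Finset
open scoped MatrixGroups

variable {W : Type} [AddCommGroup W] [Module k3 W]

theorem idem_add [FiniteDimensional k3 W] {p : End k3 W} (hp : p * p = p) {U : Submodule k3 W} (hU : ∀ v ∈ U, p v ∈ U) :
    fx p = fx (p.restrict hU) + fx (U.mapQ U p hU : End k3 (W ⧸ U)) := by
  have e1 := LinearMap.finrank_range_add_finrank_ker (U.mkQ.domRestrict (p.eigenspace 1))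
  have e2 : LinearMap.range (U.mkQ.domRestrict (p.eigenspace 1)) =
      End.eigenspace (U.mapQ U p hU : End k3 (W ⧸ U)) 1 := by
    apply le_antisymm
    · rintro _ ⟨⟨x, h1⟩, rfl⟩
      rw [End.mem_eigenspace_iff, one_smul] at h1 ⊢
      exact congrArg U.mkQ h1
    · intro y hy
      obtain ⟨x, rfl⟩ := U.mkQ_surjective y
      rw [End.mem_eigenspace_iff, one_smul] at hy
      refine ⟨⟨p x, ?_⟩, hy⟩
      rw [End.mem_eigenspace_iff, one_smul, ← End.mul_apply, hp]
  have e3 : (LinearMap.ker (U.mkQ.domRestrict (p.eigenspace 1))).map (p.eigenspace 1).subtype =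
      (End.eigenspace (p.restrict hU : End k3 U) 1).map U.subtype := by
    apply le_antisymm
    · rintro _ ⟨⟨x, h1⟩, hx, rfl⟩
      exact ⟨⟨x, (Submodule.Quotient.mk_eq_zero U).1 hx⟩,
        End.mem_eigenspace_iff.2 (Subtype.ext (End.mem_eigenspace_iff.1 h1)), rfl⟩
    · rintro _ ⟨⟨x, h1⟩, hx, rfl⟩
      exact ⟨⟨x, End.mem_eigenspace_iff.2 (congrArg Subtype.val (End.mem_eigenspace_iff.1 hx))⟩,
        (Submodule.Quotient.mk_eq_zero U).2 h1, rfl⟩
  have e4 := congrArg (fun S : Submodule k3 W => finrank k3 S) e3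
  simp only [Submodule.finrank_map_subtype_eq] at e4
  rw [e2, e4] at e1
  unfold fx
  omega

end CL.E87.IndA
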