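/-
`E₈(3)`, `L₂(7)`: the Steinberg case of the simple modules.
-/
import Cfsg.Agent.KSG.E87.HkA
import Cfsg.Agent.KSG.E87.Four

set_option autoImplicit false

namespace CL.E87.SimpM
open Module Function Finset
open scoped MatrixGroups

variable {W : Type} [AddCommGroup W] [Module k3 W] (ρ : S7 →* End k3 W)

theorem neg_eq (h : ρ (-1) = 1) (g : S7) : ρ (-g) = ρ g := by
  have : -g = (-1) * g := by simp
  rw [this, map_mul, h, one_mul]

theorem pow_fix {a : End k3 W} {v : W} (h : a v = v) (n : ℕ) : (a ^ n) v = v := by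
  induction n with
  | zero => simp
  | succ n ih => rw [pow_succ, Module.End.mul_apply, h, ih]

theorem stab {v : W} (h1 : ρ es v = v) (h2 : ρ eu v = v) (y : S7) (a j : ℕ) :
    ρ (y * (es ^ a * eu ^ j)) v = ρ y v := by
  rw [map_mul, map_mul, map_pow, map_pow, Module.End.mul_apply, Module.End.mul_apply, pow_fix h2, pow_fix h1]

theorem three (x : W) : x + x + x = 0 := by
  have : x + x + x = (3 : k3) • x := by
    rw [show (3 : k3) = 1 + 1 + 1 by norm_num, add_smul, add_smul, one_smul]
  rw [this, show (3 : k3) = 0 by decide, zero_smul]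

/-- the orbit of `v` -/
theorem orbit (h : ρ (-1) = 1) {v : W} (h1 : ρ es v = v) (h2 : ρ eu v = v) (g : S7) :
    ρ g v = v ∨ ∃ a < 7, ρ g v = ρ (es ^ a * ew) v := by
  have hu : ρ eu (ρ ew v) = ρ ew v := by
    have e : eu * ew = ew * (es ^ 0 * eu ^ 2) := by decide
    rw [← Module.End.mul_apply, ← map_mul, e, stab ρ h1 h2]
  have k1 : ∀ a j : ℕ, ρ (es ^ a * eu ^ j) v = v := by
    intro a j
    have := stab ρ h1 h2 1 a j
    simpa using this
  have k2 : ∀ a j b : ℕ, ρ (es ^ a * eu ^ j * ew * es ^ b) v = ρ (es ^ a * ew) v := by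
    intro a j b
    simp only [map_mul, map_pow, Module.End.mul_apply]
    rw [pow_fix h1, pow_fix hu]
  obtain ⟨a, ha, j, -, b, -, e | e | e | e⟩ := bruhat g
  · left; rw [e, k1]
  · left; rw [e, neg_eq ρ h, k1]
  · right; exact ⟨a, ha, by rw [e, k2]⟩
  · right; exact ⟨a, ha, by rw [e, neg_eq ρ h, k2]⟩

theorem span_top (hs : ∀ U, Inv ρ U → U = ⊥ ∨ U = ⊤) {v : W} (hv : v ≠ 0) :
    Submodule.span k3 (Set.range fun g : S7 => ρ g v) = ⊤ := by
  have hi : Inv ρ (Submodule.span k3 (Set.range fun g : S7 => ρ g v)) := by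
    intro g x hx
    have : Submodule.span k3 (Set.range fun g : S7 => ρ g v) ≤
        (Submodule.span k3 (Set.range fun g : S7 => ρ g v)).comap (ρ g) := by
      rw [Submodule.span_le]
      rintro _ ⟨k, rfl⟩
      refine Submodule.subset_span ⟨g * k, ?_⟩
      simp
    exact this hx
  rcases hs _ hi with e | e
  · exfalso
    have : v ∈ Submodule.span k3 (Set.range fun g : S7 => ρ g v) := Submodule.subset_span ⟨1, by simp⟩
    rw [e] at this
    exact hv (by simpa using this)
  · exact e

theorem all_mem (hs : ∀ U, Inv ρ U → U = ⊥ ∨ U = ⊤) {v : W} (hv : v ≠ 0) (f : End k3 W) (K : Submodule k3 W)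
    (hf : ∀ g, f (ρ g v) ∈ K) (x : W) : f x ∈ K := by
  have : Submodule.span k3 (Set.range fun g : S7 => ρ g v) ≤ K.comap f := by
    rw [Submodule.span_le]
    rintro _ ⟨k, rfl⟩
    exact hf k
  rw [span_top ρ hs hv] at this
  exact this Submodule.mem_top

theorem fx_le {a : End k3 W} {o : W} (h : ∀ x, a x = x → x ∈ Submodule.span k3 {o}) : fx a ≤ 1 := by
  have h1 : a.eigenspace 1 ≤ Submodule.span k3 {o} := by
    intro x hx
    rw [Module.End.mem_eigenspace_iff, one_smul] at hx
    exact h x hx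
  have h2 : finrank k3 (Submodule.span k3 ({o} : Set W)) ≤ 1 := by
    have := finrank_span_le_card (R := k3) ({o} : Set W)
    simpa using this
  exact (Submodule.finrank_mono h1).trans h2

variable [FiniteDimensional k3 W]

theorem neg_case (h : ρ (-1) = 1) (hs : ∀ U, Inv ρ U → U = ⊥ ∨ U = ⊤) (v : W) (hv : v ≠ 0)
    (h1 : ρ es v = v) (h2 : ρ eu v = v) (h3 : TT ρ v = -v) :
    3 * fx (ρ eg) + 4 * am ρ ≤ finrank k3 W := by
  have ev : e7 ρ v = v := (e7_fix ρ).2 h1
  have ew' : e7 ρ (ρ ew v) = -v := by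
    rw [← h3, TT, Module.End.mul_apply, Module.End.mul_apply, ev]
  have es' : ∀ (a : ℕ) (x : W), e7 ρ ((ρ es ^ a) x) = e7 ρ x := by
    intro a
    induction a with
    | zero => simp
    | succ n ih =>
      intro x
      rw [pow_succ, Module.End.mul_apply, ih, ← Module.End.mul_apply, (es_e7 ρ).2]
  -- the fixed space of `s`
  have hE : ∀ x, e7 ρ x ∈ Submodule.span k3 {v} := by
    refine all_mem ρ hs hv _ _ fun g => ?_
    rcases orbit ρ h h1 h2 g with e | ⟨a, -, e⟩
    · rw [e, ev]; exact Submodule.mem_span_singleton_self v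
    · rw [e, map_mul, map_pow, Module.End.mul_apply, es', ew']
      exact Submodule.neg_mem _ (Submodule.mem_span_singleton_self v)
  have f1 : fx (ρ es) ≤ 1 := fx_le fun x hx => by
    have := hE x
    rwa [(e7_fix ρ).2 hx] at this
  have f0 : fx (ρ es) ≠ 0 := by
    intro e
    have hb : (ρ es).eigenspace 1 = ⊥ := Submodule.finrank_eq_zero.1 e
    have : v ∈ (ρ es).eigenspace 1 := by rw [Module.End.mem_eigenspace_iff, one_smul]; exact h1
    rw [hb] at this
    exact hv (by simpa using this)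
  have ham : am ρ ≤ 1 := by have := fx_es ρ h; omega
  have s7 : ρ es ^ 7 = 1 := by
    rw [← map_pow, show es ^ 7 = 1 by decide, map_one]
  have h6 := six s7
  have hn1 : finrank k3 W ≠ 1 := by
    intro e
    have hall : ∀ x : W, ρ es x = x := by
      intro x
      obtain ⟨c, rfl⟩ := (finrank_eq_one_iff_of_nonzero' v hv).1 e x
      rw [map_smul, h1]
    have hs1 : ρ es = 1 := LinearMap.ext hall
    have e2 : ew = es ^ 6 * (ew * es ^ 6 * ew ^ 3) * es ^ 6 := by decide
    have e3 : ew * ew ^ 3 = 1 := by decide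
    have hw : ρ ew = 1 := by
      have := congrArg ρ e2
      simp only [map_mul, map_pow, hs1, one_pow, one_mul, mul_one] at this
      rw [this, ← map_pow, ← map_mul, e3, map_one]
    rw [hw, Module.End.one_apply, ev] at ew'
    have := three v
    rw [add_assoc] at this
    have h0 : v + v = 0 := by nth_rewrite 2 [ew']; exact add_neg_cancel v
    rw [h0, add_zero] at this
    exact hv this
  -- the fixed space of `g`
  have g4 : ρ eg ^ 4 = 1 := by
    rw [← map_pow, show eg ^ 4 = -1 by decide, h]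
  set p : End k3 W := 1 + ρ eg + ρ eg ^ 2 + ρ eg ^ 3 with hp
  have pg : p * ρ eg = p := by
    rw [hp, add_mul, add_mul, add_mul, one_mul, ← pow_two, ← pow_succ, ← pow_succ, g4]
    abel
  have mv : ∀ (x y : S7) (a j : ℕ), (eg * x = y * (es ^ a * eu ^ j) ∨ eg * x = -(y * (es ^ a * eu ^ j))) →
      p (ρ x v) = p (ρ y v) := by
    intro x y a j e
    have : ρ eg (ρ x v) = ρ y v := by
      rw [← Module.End.mul_apply, ← map_mul]
      rcases e with e | e
      · rw [e, stab ρ h1 h2]
      · rw [e, neg_eq ρ h, stab ρ h1 h2]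
    rw [← this, ← Module.End.mul_apply p (ρ eg), pg]
  have m1 := mv 1 (es ^ 1 * ew) 4 1 (Or.inl (by decide))
  have m0 := mv (es ^ 1 * ew) (es ^ 0 * ew) 6 2 (Or.inl (by decide))
  have m6 := mv (es ^ 0 * ew) (es ^ 6 * ew) 3 1 (Or.inl (by decide))
  have m5 := mv (es ^ 2 * ew) (es ^ 5 * ew) 2 0 (Or.inr (by decide))
  have m3 := mv (es ^ 5 * ew) (es ^ 3 * ew) 4 1 (Or.inr (by decide))
  have m4 := mv (es ^ 3 * ew) (es ^ 4 * ew) 5 0 (Or.inl (by decide))
  rw [map_one, Module.End.one_apply] at m1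
  have hsum : ρ (es ^ 0 * ew) v + ρ (es ^ 1 * ew) v + ρ (es ^ 2 * ew) v + ρ (es ^ 3 * ew) v + ρ (es ^ 4 * ew) v +
      ρ (es ^ 5 * ew) v + ρ (es ^ 6 * ew) v = -v := by
    rw [← ew', e7]
    simp only [map_mul, map_pow, Module.End.mul_apply, sum_range_succ, range_zero, sum_empty, zero_add,
      LinearMap.add_apply]
  have hO := congrArg p hsum
  simp only [map_add, map_neg] at hO
  rw [← m6, ← m0, ← m1, ← m4, ← m3, ← m5] at hO
  have hO' : p (ρ (es ^ 2 * ew) v) = -p v := by
    have t1 := three (p v)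
    have t2 := three (p (ρ (es ^ 2 * ew) v))
    linear_combination (norm := abel) hO - t1 - t2
  have hP : ∀ x, p x ∈ Submodule.span k3 {p v} := by
    refine all_mem ρ hs hv _ _ fun g => ?_
    have a1 := Submodule.mem_span_singleton_self (R := k3) (p v)
    have a2 := Submodule.neg_mem _ a1
    rcases orbit ρ h h1 h2 g with e | ⟨a, ha, e⟩
    · rw [e]; exact a1
    · rw [e]
      interval_cases a
      · rw [← m0, ← m1]; exact a1
      · rw [← m1]; exact a1
      · rw [hO']; exact a2
      · rw [← m3, ← m5, hO']; exact a2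
      · rw [← m4, ← m3, ← m5, hO']; exact a2
      · rw [← m5, hO']; exact a2
      · rw [← m6, ← m0, ← m1]; exact a1
  have fg : fx (ρ eg) ≤ 1 := fx_le fun x hx => by
    have := hP x
    have e : p x = x := by
      rw [hp]
      simp only [LinearMap.add_apply, Module.End.one_apply, pow_fix hx, hx]
      rw [three, zero_add]
    rwa [e] at this
  omega

end CL.E87.SimpM
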